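/-
Project SGJ4, classes.  General group theory: counting conjugacy classes from representatives grouped by
their orders, conjugacy of powers of an element of prime order.
-/
import Cfsg.Agent.H14.Classes

set_option autoImplicit false

namespace Cfsg.Agent.SGJ4.Cls

open Subgroup

variable {G : Type*} [Group G]

/-- pairwise non-conjugate elements of order `n` with property `P` and bounds `cs` for the orders of
their centralisers -/
def Blk (P : G → Prop) (n : ℕ) (cs : List ℕ) : Prop :=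
  ∃ l : List (G × ℕ), l.map Prod.snd = cs ∧
    (∀ e ∈ l, P e.1 ∧ orderOf e.1 = n ∧ Nat.card (centralizer ({e.1} : Set G)) ≤ e.2) ∧
    l.Pairwise fun a b => ¬ IsConj a.1 b.1

theorem Blk.one {P : G → Prop} {x : G} {n c : ℕ} (hP : P x) (ho : orderOf x = n)
    (hc : Nat.card (centralizer ({x} : Set G)) ≤ c) : Blk P n [c] :=
  ⟨[(x, c)], rfl, by simp [hP, ho, hc], List.pairwise_singleton _ _⟩

theorem Blk.mono {P Q : G → Prop} {n : ℕ} {cs : List ℕ} (h : Blk P n cs) (hPQ : ∀ x, P x → Q x) :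
    Blk Q n cs :=
  let ⟨l, h1, h2, h3⟩ := h
  ⟨l, h1, fun e he => ⟨hPQ _ (h2 e he).1, (h2 e he).2⟩, h3⟩

theorem Blk.true {P : G → Prop} {n : ℕ} {cs : List ℕ} (h : Blk P n cs) :
    Blk (fun _ : G => True) n cs := h.mono fun _ _ => trivial

theorem Blk.append {P Q R : G → Prop} {n : ℕ} {cs ds : List ℕ} (h1 : Blk P n cs) (h2 : Blk Q n ds)
    (h : ∀ x y, P x → Q y → ¬ IsConj x y) (hP : ∀ x, P x → R x) (hQ : ∀ x, Q x → R x) :
    Blk R n (cs ++ ds) := by
  obtain ⟨l, rfl, a2, a3⟩ := h1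
  obtain ⟨m, rfl, b2, b3⟩ := h2
  refine ⟨l ++ m, List.map_append, fun e he => ?_, List.pairwise_append.2 ⟨a3, b3, fun a ha b hb =>
    h _ _ (a2 a ha).1 (b2 b hb).1⟩⟩
  rcases List.mem_append.1 he with he | he
  exacts [⟨hP _ (a2 e he).1, (a2 e he).2⟩, ⟨hQ _ (b2 e he).1, (b2 e he).2⟩]

theorem Blk.two {P : G → Prop} {x y : G} {n c d : ℕ} (hx : P x) (hy : P y) (ox : orderOf x = n)
    (oy : orderOf y = n) (hc : Nat.card (centralizer ({x} : Set G)) ≤ c)
    (hd : Nat.card (centralizer ({y} : Set G)) ≤ d) (h : ¬ IsConj x y) : Blk P n [c, d] :=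
  Blk.append (P := (· = x)) (Q := (· = y)) (Blk.one rfl ox hc) (Blk.one rfl oy hd)
    (fun _ _ h1 h2 => h1 ▸ h2 ▸ h) (fun _ e => e ▸ hx) (fun _ e => e ▸ hy)

theorem centralizer_inv (x : G) : centralizer ({x⁻¹} : Set G) = centralizer {x} := by
  ext g
  simp only [mem_centralizer_singleton_iff]
  exact ⟨fun h => (show Commute g x from by simpa using (show Commute g x⁻¹ from h).inv_right),
    fun h => (show Commute g x from h).inv_right⟩

theorem isConj_pow {x y : G} (h : IsConj x y) (k : ℕ) : IsConj (x ^ k) (y ^ k) := by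
  obtain ⟨g, rfl⟩ := isConj_iff.1 h
  exact isConj_iff.2 ⟨g, conj_pow.symm⟩

theorem orderOf_isConj {x y : G} (h : IsConj x y) : orderOf x = orderOf y := by
  obtain ⟨g, rfl⟩ := isConj_iff.1 h
  exact ((MulAut.conj g).orderOf_eq x).symm

/-- an element and its inverse, if a power is not real -/
theorem Blk.pm {P : G → Prop} {x : G} {n c k : ℕ} (hx : P x) (hy : P x⁻¹) (ox : orderOf x = n)
    (hc : Nat.card (centralizer ({x} : Set G)) ≤ c) (h : ¬ IsConj (x ^ k) (x ^ k)⁻¹) :
    Blk P n [c, c] :=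
  Blk.two hx hy ox (by rw [orderOf_inv, ox]) hc (by rwa [centralizer_inv])
    fun e => h (by simpa using isConj_pow e k)

theorem exists_list (D : List (ℕ × List ℕ)) (hD : ∀ d ∈ D, Blk (fun _ : G => True) d.1 d.2)
    (hn : (D.map Prod.fst).Nodup) :
    ∃ l : List (G × ℕ), l.map Prod.snd = D.flatMap Prod.snd ∧
      (∀ e ∈ l, orderOf e.1 ∈ D.map Prod.fst ∧ Nat.card (centralizer ({e.1} : Set G)) ≤ e.2) ∧
      l.Pairwise fun a b => ¬ IsConj a.1 b.1 := by
  induction D with
  | nil => exact ⟨[], rfl, by simp, List.Pairwise.nil⟩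
  | cons d D ih =>
    rw [List.map_cons, List.nodup_cons] at hn
    obtain ⟨m, b1, b2, b3⟩ := ih (fun e he => hD e (List.mem_cons_of_mem _ he)) hn.2
    obtain ⟨l, a1, a2, a3⟩ := hD d List.mem_cons_self
    refine ⟨l ++ m, by rw [List.map_append, a1, b1, List.flatMap_cons], fun e he => ?_,
      List.pairwise_append.2 ⟨a3, b3, fun a ha b hb h => hn.1 ?_⟩⟩
    · rcases List.mem_append.1 he with he | he
      · exact ⟨by rw [(a2 e he).2.1]; exact List.mem_cons_self, (a2 e he).2.2⟩
      · exact ⟨List.mem_cons_of_mem _ (b2 e he).1, (b2 e he).2⟩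
    · rw [← (a2 a ha).2.1, orderOf_isConj h]; exact (b2 b hb).1

/-- the class equation -/
theorem card_conjClasses [Finite G] (D : List (ℕ × List ℕ))
    (hD : ∀ d ∈ D, Blk (fun _ : G => True) d.1 d.2) (hn : (D.map Prod.fst).Nodup) {N : ℕ}
    (hN : Nat.card G = N) (hd : ∀ c ∈ D.flatMap Prod.snd, c ∣ N)
    (hs : N ≤ ((D.flatMap Prod.snd).map (N / ·)).sum) :
    Nat.card (ConjClasses G) = (D.flatMap Prod.snd).length := by
  classical
  obtain ⟨l, h1, h2, h3⟩ := exists_list D hD hn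
  rw [← h1] at hd hs ⊢
  have hT : Nat.card (⊤ : Subgroup G) = N := by rw [card_top, hN]
  obtain ⟨h4, -⟩ := H14.classes_of_bounds (K := (⊤ : Subgroup G)) l Prod.fst Prod.snd
    (fun _ _ => mem_top _) (fun e he => by rw [top_inf_eq]; exact (h2 e he).2)
    (fun e he => by rw [hT]; exact hd _ (List.mem_map_of_mem he))
    (h3.imp fun h g _ e => h (isConj_iff.2 ⟨g, e⟩)) (by rw [hT]; simpa [Function.comp_def] using hs)
  have h5 : (l.map fun e => ConjClasses.mk e.1).Nodup :=
    (List.pairwise_map.2 (h3.imp fun h e => h (ConjClasses.mk_eq_mk_iff_isConj.1 e)))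
  have := Fintype.ofFinite (ConjClasses G)
  have h6 : (l.map fun e => ConjClasses.mk e.1).toFinset = Finset.univ := by
    refine Finset.eq_univ_of_forall fun c => ?_
    obtain ⟨g, rfl⟩ := ConjClasses.mk_surjective c
    obtain ⟨e, he, a, -, rfl⟩ := h4 g (mem_top g)
    exact List.mem_toFinset.2 (List.mem_map.2 ⟨e, he,
      ConjClasses.mk_eq_mk_iff_isConj.2 (isConj_iff.2 ⟨a, rfl⟩)⟩)
  rw [Nat.card_eq_fintype_card, ← Finset.card_univ, ← h6, List.toFinset_card_of_nodup h5,
    List.length_map, List.length_map]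

/-! ### normalisers of cyclic subgroups -/

theorem cent_zpowers (x : G) : centralizer (zpowers x : Set G) = centralizer {x} := by
  rw [zpowers_eq_closure, centralizer_closure]

theorem mem_norm_of_conj [Finite G] {g x : G} (h : g * x * g⁻¹ ∈ zpowers x) :
    g ∈ normalizer (zpowers x : Set G) := by
  refine mem_normalizer_fintype fun n hn => ?_
  obtain ⟨k, rfl⟩ := mem_zpowers_iff.1 hn
  rw [← conj_zpow]; exact zpow_mem h k

theorem cent_le_norm (x : G) : centralizer ({x} : Set G) ≤ normalizer (zpowers x : Set G) := by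
  rw [← cent_zpowers]; exact centralizer_le_normalizer _

theorem ker_norm (x : G) : (normalizerMonoidHom (zpowers x)).ker =
    (centralizer ({x} : Set G)).subgroupOf (normalizer (zpowers x : Set G)) := by
  rw [normalizerMonoidHom_ker, cent_zpowers]

theorem card_norm_eq (x : G) : Nat.card (normalizer (zpowers x : Set G)) =
    Nat.card (normalizerMonoidHom (zpowers x)).range * Nat.card (centralizer ({x} : Set G)) := by
  rw [← index_ker, ker_norm, ← Nat.card_congr (subgroupOfEquivOfLe (cent_le_norm x)).toEquiv,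
    index_mul_card]

theorem pow_conj [Finite G] {r e : ℕ} (hr : r.Prime) {x : G} (hx : orderOf x = r)
    (he : Nat.card (normalizer (zpowers x : Set G)) = e * Nat.card (centralizer ({x} : Set G)))
    {i j : ℕ} (hi : ¬ r ∣ i) (h : IsConj (x ^ i) (x ^ j)) : i ^ e ≡ j ^ e [MOD r] := by
  obtain ⟨g, hg⟩ := isConj_iff.1 h
  have h1 : x ∈ zpowers (x ^ i) :=
    mem_zpowers_pow_iff.2 (by rw [hx]; exact ((Nat.Prime.coprime_iff_not_dvd hr).2 hi).symm)
  have h2 : g * x * g⁻¹ ∈ zpowers x := by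
    obtain ⟨k, hk⟩ := mem_zpowers_iff.1 h1
    rw [← hk, ← conj_zpow, hg, hk]
    exact zpow_mem (pow_mem (mem_zpowers x) j) k
  have hN := mem_norm_of_conj h2
  obtain ⟨k, hk⟩ := (mem_powers_iff_mem_zpowers.2 h2)
  have hk : x ^ k = g * x * g⁻¹ := hk
  have h3 : ∀ n : ℕ, g ^ n * x * (g ^ n)⁻¹ = x ^ k ^ n := by
    intro n
    induction n with
    | zero => simp
    | succ n ih =>
      rw [pow_succ', mul_inv_rev, show g * g ^ n * x * ((g ^ n)⁻¹ * g⁻¹) =
        g * (g ^ n * x * (g ^ n)⁻¹) * g⁻¹ by group, ih, ← conj_pow, ← hk, ← pow_mul, pow_succ']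
  have h4 : Nat.card (normalizerMonoidHom (zpowers x)).range = e :=
    Nat.eq_of_mul_eq_mul_right Nat.card_pos ((card_norm_eq x).symm.trans he)
  have h5 : (⟨g, hN⟩ : normalizer (zpowers x : Set G)) ^ e ∈ (normalizerMonoidHom (zpowers x)).ker := by
    rw [← h4, ← index_ker]; exact pow_index_mem (normalizerMonoidHom (zpowers x)).ker _
  rw [ker_norm, mem_subgroupOf, mem_centralizer_singleton_iff] at h5
  have h6 : x ^ k ^ e = x ^ 1 := by
    rw [← h3, pow_one]; exact mul_inv_eq_iff_eq_mul.2 h5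
  have h7 : x ^ (k * i) = x ^ j := by rw [pow_mul, hk, conj_pow, hg]
  rw [pow_eq_pow_iff_modEq, hx] at h6 h7
  calc i ^ e = 1 * i ^ e := (one_mul _).symm
    _ ≡ k ^ e * i ^ e [MOD r] := (h6.symm.mul_right _)
    _ = (k * i) ^ e := (mul_pow _ _ _).symm
    _ ≡ j ^ e [MOD r] := h7.pow e

theorem exists_sylow [Finite G] {r : ℕ} [hr : Fact r.Prime] {x : G} (hx : orderOf x = r)
    (h2 : ¬ r ^ 2 ∣ Nat.card G) : ∃ U : Sylow r G, (U : Subgroup G) = zpowers x := by
  have h1 : Nat.card (zpowers x) = r := by rw [Nat.card_zpowers, hx]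
  refine ⟨(IsPGroup.of_card (n := 1) (h1.trans (pow_one r).symm)).toSylow fun h => h2 ?_, rfl⟩
  rw [← index_mul_card (zpowers x), h1, sq]
  exact Nat.mul_dvd_mul_right h r

/-- Sylow's theorem for a Sylow subgroup of prime order -/
theorem exists_e [Finite G] {r : ℕ} (hr : r.Prime) {x : G} (hx : orderOf x = r)
    (h2 : ¬ r ^ 2 ∣ Nat.card G) : ∃ e m, e ∣ r - 1 ∧ m ≡ 1 [MOD r] ∧
      Nat.card (normalizer (zpowers x : Set G)) = e * Nat.card (centralizer ({x} : Set G)) ∧
      Nat.card G = m * e * Nat.card (centralizer ({x} : Set G)) := by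
  have := Fact.mk hr
  obtain ⟨U, hU⟩ := exists_sylow hx h2
  refine ⟨_, (normalizer (zpowers x : Set G)).index, ?_, ?_, card_norm_eq x, ?_⟩
  · have := card_subgroup_dvd_card (normalizerMonoidHom (zpowers x)).range
    rwa [IsCyclic.card_mulAut, Nat.card_zpowers, hx, Nat.totient_prime hr] at this
  · rw [← hU]
    exact (Sylow.card_eq_index_normalizer U) ▸ card_sylow_modEq_one r G
  · rw [mul_assoc, ← card_norm_eq, index_mul_card]

/-- representatives among the powers of an element of prime order -/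
theorem blk_pow [Finite G] {r e c : ℕ} (hr : r.Prime) {x : G} (hx : orderOf x = r)
    (he : Nat.card (normalizer (zpowers x : Set G)) = e * Nat.card (centralizer ({x} : Set G)))
    (hc : ∀ y : G, orderOf y = r → Nat.card (centralizer ({y} : Set G)) ≤ c) (is : List ℕ)
    (h1 : ∀ i ∈ is, ¬ r ∣ i) (h2 : is.Pairwise fun i j => i ^ e % r ≠ j ^ e % r) :
    Blk (fun _ : G => True) r (is.map fun _ => c) := by
  have ho : ∀ i ∈ is, orderOf (x ^ i) = r := fun i hi => by
    rw [Nat.Coprime.orderOf_pow (by rw [hx]; exact (Nat.Prime.coprime_iff_not_dvd hr).2 (h1 i hi)), hx]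
  refine ⟨is.map fun i => (x ^ i, c), by simp [Function.comp_def], fun a ha => ?_,
    List.pairwise_map.2 ?_⟩
  · obtain ⟨i, hi, rfl⟩ := List.mem_map.1 ha
    exact ⟨trivial, ho i hi, hc _ (ho i hi)⟩
  · exact h2.imp_of_mem fun hi _ h e' => h (pow_conj hr hx he (h1 _ hi) e')

/-- a function on `C` that is constant on the cosets of `S` -/
theorem card_mul_ncard_le [Finite G] {β : Type*} {S C : Subgroup G} (h : S ≤ C) (φ : G → β)
    (hφ : ∀ y ∈ C, ∀ s ∈ S, φ (y * s) = φ y) :
    Nat.card S * {b | ∃ y ∈ C, φ y = b}.ncard ≤ Nat.card C := by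
  rw [← card_mul_index (S.subgroupOf C), Nat.card_congr (subgroupOfEquivOfLe h).toEquiv]
  refine Nat.mul_le_mul_left _ ?_
  let f : C ⧸ S.subgroupOf C → β := Quotient.lift (fun y : C => φ y) fun a b e => by
    have := hφ a a.2 _ (mem_subgroupOf.1
      ((QuotientGroup.leftRel_apply (s := S.subgroupOf C)).1 e))
    simpa using this.symm
  have : {b | ∃ y ∈ C, φ y = b} = f '' Set.univ := by
    ext b
    exact ⟨fun ⟨y, hy, e⟩ => ⟨(⟨y, hy⟩ : C), trivial, e⟩, fun ⟨q, _, e⟩ => by
      induction q using QuotientGroup.induction_on with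
      | H y => exact ⟨y, y.2, e⟩⟩
  rw [this, index, ← Set.ncard_univ]
  exact Set.ncard_image_le (Set.toFinite _)

theorem length_le_ncard {β : Type*} {l : List β} (hl : l.Nodup) {S : Set β} (hS : S.Finite)
    (h : ∀ b ∈ l, b ∈ S) : l.length ≤ S.ncard := by
  classical
  rw [← List.toFinset_card_of_nodup hl, ← Set.ncard_coe_finset]
  exact Set.ncard_le_ncard (fun b hb => h b (List.mem_toFinset.1 hb)) hS

theorem two_mul_le_of_lt [Finite G] {A D : Subgroup G} (h : A ≤ D) (hne : A ≠ D) :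
    2 * Nat.card A ≤ Nat.card D := by
  obtain ⟨k, hk⟩ := card_dvd_of_le h
  have h0 : k ≠ 0 := by rintro rfl; exact absurd hk (Nat.card_pos.ne')
  have h1 : k ≠ 1 := by
    rintro rfl; exact hne (eq_of_le_of_card_ge h (by rw [hk, mul_one]))
  rw [hk, mul_comm]; exact Nat.mul_le_mul_left _ (by omega)

/-- the order from a power that is an involution -/
theorem orderOf_of_pow {x z : G} {n : ℕ} (hn : 0 < n) (h : x ^ n = z) (h1 : z ≠ 1) (h2 : z * z = 1)
    (h3 : ∀ p, 2 < p → p % 2 = 1 → p ∣ 2 * n → x ^ (2 * n / p) ≠ 1) : orderOf x = 2 * n := by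
  refine orderOf_eq_of_pow_and_pow_div_prime (by omega) (by rw [mul_comm, pow_mul, h, sq, h2])
    fun p hp hd => ?_
  rcases hp.eq_two_or_odd with rfl | h4
  · rw [Nat.mul_div_cancel_left _ (by decide), h]; exact h1
  · exact h3 p (by have := hp.two_le; omega) h4 hd

end Cfsg.Agent.SGJ4.Cls
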